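import Mathlib

/-!
# The extraspecial group `7^(1+2)` inside a group, and the subgroups `7² : SL₂(7)`
-/

namespace CfsgLib.ON

open Subgroup

/-- The Heisenberg group over the field with seven elements. -/
@[ext] structure Hs : Type where
  a : ZMod 7
  b : ZMod 7
  c : ZMod 7
  deriving DecidableEq

namespace Hs

instance : Mul Hs := ⟨fun x y => ⟨x.a + y.a, x.b + y.b, x.c + y.c + x.b * y.a⟩⟩
instance : One Hs := ⟨⟨0, 0, 0⟩⟩
instance : Inv Hs := ⟨fun x => ⟨-x.a, -x.b, -x.c + x.a * x.b⟩⟩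

@[simp] theorem mul_a (x y : Hs) : (x * y).a = x.a + y.a := rfl
@[simp] theorem mul_b (x y : Hs) : (x * y).b = x.b + y.b := rfl
@[simp] theorem mul_c (x y : Hs) : (x * y).c = x.c + y.c + x.b * y.a := rfl
@[simp] theorem one_a : (1 : Hs).a = 0 := rfl
@[simp] theorem one_b : (1 : Hs).b = 0 := rfl
@[simp] theorem one_c : (1 : Hs).c = 0 := rfl
@[simp] theorem inv_a (x : Hs) : x⁻¹.a = -x.a := rfl
@[simp] theorem inv_b (x : Hs) : x⁻¹.b = -x.b := rfl
@[simp] theorem inv_c (x : Hs) : x⁻¹.c = -x.c + x.a * x.b := rfl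

instance : Group Hs := Group.ofLeftAxioms
  (fun x y z => by ext <;> simp <;> ring) (fun x => by ext <;> simp)
  (fun x => by ext <;> simp; ring)

/-- Coordinates. -/
def equiv : Hs ≃ ZMod 7 × ZMod 7 × ZMod 7 :=
  ⟨fun x => (x.a, x.b, x.c), fun p => ⟨p.1, p.2.1, p.2.2⟩, fun _ => rfl, fun _ => rfl⟩

instance : Fintype Hs := Fintype.ofEquiv _ equiv.symm

theorem card : Nat.card Hs = 343 := by rw [Nat.card_congr equiv]; simp

theorem mem_cent {x y : Hs} : y ∈ centralizer {x} ↔ y.b * x.a = x.b * y.a := by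
  rw [mem_centralizer_singleton_iff, Hs.ext_iff]
  simp only [mul_a, mul_b, mul_c]
  exact ⟨fun h => by linear_combination h.2.2, fun h => ⟨by ring, by ring, by linear_combination h⟩⟩

instance cent_normal (x : Hs) : (centralizer {x}).Normal :=
  ⟨fun y hy g => by rw [mem_cent] at hy ⊢; simpa using hy⟩

theorem pow_central (c : ZMod 7) (n : ℕ) : (⟨0, 0, c⟩ : Hs) ^ n = ⟨0, 0, n * c⟩ := by
  induction n with
  | zero => ext <;> simp
  | succ n ih => rw [pow_succ, ih]; ext <;> simp; ring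

theorem gen_eq : ∀ w : Hs, w = (⟨1, 0, 0⟩ : Hs) ^ w.a.val * (⟨0, 1, 0⟩ : Hs) ^ w.b.val *
    ((⟨0, 1, 0⟩ : Hs) ^ 6 * (⟨1, 0, 0⟩ : Hs) ^ 6 * ⟨0, 1, 0⟩ * ⟨1, 0, 0⟩) ^ w.c.val := by
  decide +kernel

end Hs

variable {G : Type*} [Group G]

/-- Generators of an extraspecial group of order `343`. -/
def HT (x y z : G) : Prop :=
  x ^ 7 = 1 ∧ y ^ 7 = 1 ∧ z ^ 7 = 1 ∧ x * z = z * x ∧ y * z = z * y ∧ y * x = x * y * z ∧ z ≠ 1

theorem pow_val_add {x : G} (h : x ^ 7 = 1) (i j : ZMod 7) :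
    x ^ (i + j).val = x ^ i.val * x ^ j.val := by
  rw [ZMod.val_add, ← pow_eq_pow_mod _ h, pow_add]

theorem pow_val_mul {x : G} (h : x ^ 7 = 1) (i j : ZMod 7) :
    x ^ (i * j).val = x ^ (i.val * j.val) := by
  rw [ZMod.val_mul, ← pow_eq_pow_mod _ h]

theorem pow_val_cast {x : G} (h : x ^ 7 = 1) (n : ℕ) : x ^ (n : ZMod 7).val = x ^ n := by
  rw [ZMod.val_natCast, ← pow_eq_pow_mod _ h]

theorem val_one7 : (1 : ZMod 7).val = 1 := rfl

namespace HT

variable {x y z : G}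

theorem swap (h : HT x y z) (m n : ℕ) : y ^ m * x ^ n = x ^ n * y ^ m * z ^ (m * n) := by
  obtain ⟨-, -, -, h4, h5, h6, -⟩ := h
  have c4 : Commute x z := h4
  have c5 : Commute y z := h5
  have h1 : ∀ n, y * x ^ n = x ^ n * y * z ^ n := fun n => by
    induction n with
    | zero => simp
    | succ n ih =>
      rw [pow_succ, ← mul_assoc, ih, mul_assoc, ← (c4.pow_right n).eq, ← mul_assoc,
        mul_assoc (x ^ n), h6, pow_succ' z]
      simp only [mul_assoc]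
  induction m with
  | zero => simp
  | succ m ih =>
    rw [pow_succ', mul_assoc, ih, ← mul_assoc, ← mul_assoc, h1, add_mul, one_mul, add_comm, pow_add,
      mul_assoc (x ^ n * y), ← (c5.pow_pow m n).eq]
    simp only [mul_assoc]

/-- The embedding of the Heisenberg group. -/
def ι (h : HT x y z) : Hs →* G :=
  MonoidHom.mk' (fun w => x ^ w.a.val * y ^ w.b.val * z ^ w.c.val) fun v w => by
    have c4 : Commute x z := h.2.2.2.1
    have c5 : Commute y z := h.2.2.2.2.1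
    simp only [Hs.mul_a, Hs.mul_b, Hs.mul_c]
    rw [pow_val_add h.1, pow_val_add h.2.1, pow_val_add h.2.2.1, pow_val_add h.2.2.1,
      pow_val_mul h.2.2.1]
    have e1 : z ^ v.c.val * (x ^ w.a.val * y ^ w.b.val * z ^ w.c.val) =
        x ^ w.a.val * y ^ w.b.val * (z ^ v.c.val * z ^ w.c.val) := by
      rw [← mul_assoc, ← ((c4.pow_pow _ _).mul_left (c5.pow_pow _ _)).eq, mul_assoc]
    have e2 : z ^ (v.b.val * w.a.val) * (y ^ w.b.val * (z ^ v.c.val * z ^ w.c.val)) =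
        y ^ w.b.val * (z ^ v.c.val * z ^ w.c.val) * z ^ (v.b.val * w.a.val) :=
      ((c5.pow_pow _ _).mul_left (((Commute.refl z).pow_pow _ _).mul_left
        ((Commute.refl z).pow_pow _ _))).eq.symm
    rw [mul_assoc _ (z ^ v.c.val), e1, mul_assoc (x ^ v.a.val) (y ^ v.b.val),
      mul_assoc (x ^ w.a.val) (y ^ w.b.val), ← mul_assoc (y ^ v.b.val), h.swap,
      mul_assoc _ (z ^ (v.b.val * w.a.val)), e2]
    simp only [mul_assoc]

theorem ι_apply (h : HT x y z) (w : Hs) : h.ι w = x ^ w.a.val * y ^ w.b.val * z ^ w.c.val := rfl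

theorem ι_x (h : HT x y z) : h.ι ⟨1, 0, 0⟩ = x := by simp [ι_apply, val_one7]
theorem ι_y (h : HT x y z) : h.ι ⟨0, 1, 0⟩ = y := by simp [ι_apply, val_one7]
theorem ι_z (h : HT x y z) : h.ι ⟨0, 0, 1⟩ = z := by simp [ι_apply, val_one7]

theorem orderOf_z (h : HT x y z) : orderOf z = 7 :=
  have : Fact (Nat.Prime 7) := ⟨by norm_num⟩
  orderOf_eq_prime h.2.2.1 h.2.2.2.2.2.2

theorem ι_inj (h : HT x y z) : Function.Injective h.ι := by
  have key : ∀ c : ZMod 7, h.ι ⟨0, 0, c⟩ = 1 → c = 0 := fun c hc => by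
    simp only [ι_apply, ZMod.val_zero, pow_zero, one_mul] at hc
    have h1 := orderOf_dvd_of_pow_eq_one hc
    rw [h.orderOf_z] at h1
    exact (ZMod.val_eq_zero c).1 (Nat.eq_zero_of_dvd_of_lt h1 (ZMod.val_lt c))
  rw [injective_iff_map_eq_one]
  intro w hw
  have h1 := key w.b (by
    rw [show (⟨0, 0, w.b⟩ : Hs) = w * ⟨1, 0, 0⟩ * w⁻¹ * (⟨1, 0, 0⟩ : Hs)⁻¹ by ext <;> simp; ring]
    simp [hw])
  have h2 := key w.a (by
    rw [show (⟨0, 0, w.a⟩ : Hs) = ⟨0, 1, 0⟩ * w * (⟨0, 1, 0⟩ : Hs)⁻¹ * w⁻¹ by ext <;> simp; ring]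
    simp [hw])
  have h3 := key w.c (by rw [← hw]; congr 1; ext <;> simp [h1, h2])
  ext <;> simp [h1, h2, h3]

theorem cent_x (h : HT x y z) : (centralizer {(⟨1, 0, 0⟩ : Hs)}).map h.ι = closure {x, z} := by
  refine le_antisymm ?_ ((closure_le _).2 ?_)
  · rintro _ ⟨w, hw, rfl⟩
    have h1 : w.b = 0 := by simpa using Hs.mem_cent.1 hw
    rw [ι_apply, h1, ZMod.val_zero, pow_zero, mul_one]
    exact mul_mem (pow_mem (subset_closure (by simp)) _) (pow_mem (subset_closure (by simp)) _)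
  · rintro _ (rfl | rfl)
    · exact ⟨_, Hs.mem_cent.2 rfl, h.ι_x⟩
    · exact ⟨_, Hs.mem_cent.2 (by simp), h.ι_z⟩

theorem cent_y (h : HT x y z) : (centralizer {(⟨0, 1, 0⟩ : Hs)}).map h.ι = closure {y, z} := by
  refine le_antisymm ?_ ((closure_le _).2 ?_)
  · rintro _ ⟨w, hw, rfl⟩
    have h1 : w.a = 0 := by simpa using (Hs.mem_cent.1 hw).symm
    rw [ι_apply, h1, ZMod.val_zero, pow_zero, one_mul]
    exact mul_mem (pow_mem (subset_closure (by simp)) _) (pow_mem (subset_closure (by simp)) _)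
  · rintro _ (rfl | rfl)
    · exact ⟨_, Hs.mem_cent.2 rfl, h.ι_y⟩
    · exact ⟨_, Hs.mem_cent.2 (by simp), h.ι_z⟩

end HT

/-- Two by two matrices. -/
@[ext] structure M2 : Type where
  p : ZMod 7
  q : ZMod 7
  r : ZMod 7
  s : ZMod 7
  deriving DecidableEq

/-- Product. -/
def M2.mul (m n : M2) : M2 :=
  ⟨m.p * n.p + m.q * n.r, m.p * n.q + m.q * n.s, m.r * n.p + m.s * n.r, m.r * n.q + m.s * n.s⟩

/-- The element `b` normalises the image of `ι` and induces `m` modulo the centre. -/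
def Act (ι : Hs →* G) (m : M2) (b : G) : Prop :=
  ∀ w, ∃ v, b * ι w * b⁻¹ = ι v ∧ v.a = m.p * w.a + m.q * w.b ∧ v.b = m.r * w.a + m.s * w.b

namespace Act

variable {ι : Hs →* G} {m n : M2} {b d : G}

theorem mul (h1 : Act ι m b) (h2 : Act ι n d) : Act ι (m.mul n) (b * d) := fun w => by
  obtain ⟨v, e1, e2, e3⟩ := h2 w
  obtain ⟨u, f1, f2, f3⟩ := h1 v
  refine ⟨u, by rw [← f1, ← e1]; group, ?_, ?_⟩
  · rw [f2, e2, e3, M2.mul]; ring
  · rw [f3, e2, e3, M2.mul]; ring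

theorem inner (ι : Hs →* G) (u : Hs) : Act ι ⟨1, 0, 0, 1⟩ (ι u) := fun w =>
  ⟨u * w * u⁻¹, by simp, by simp, by simp⟩

theorem of_gen {v w : Hs} (h1 : b * ι ⟨1, 0, 0⟩ * b⁻¹ = ι v) (h2 : b * ι ⟨0, 1, 0⟩ * b⁻¹ = ι w) :
    Act ι ⟨v.a, w.a, v.b, w.b⟩ b := by
  let T : Submonoid Hs :=
    { carrier := {u | ∃ t, b * ι u * b⁻¹ = ι t ∧ t.a = v.a * u.a + w.a * u.b ∧
        t.b = v.b * u.a + w.b * u.b}
      one_mem' := ⟨1, by simp, by simp, by simp⟩
      mul_mem' := fun ⟨s, e1, e2, e3⟩ ⟨t, f1, f2, f3⟩ => ⟨s * t, by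
        rw [map_mul, map_mul, ← e1, ← f1]; group, by simp [e2, f2]; ring, by simp [e3, f3]; ring⟩ }
  have hx : (⟨1, 0, 0⟩ : Hs) ∈ T := ⟨v, h1, by simp, by simp⟩
  have hy : (⟨0, 1, 0⟩ : Hs) ∈ T := ⟨w, h2, by simp, by simp⟩
  intro u
  show u ∈ T
  rw [Hs.gen_eq u]
  exact mul_mem (mul_mem (pow_mem hx _) (pow_mem hy _))
    (pow_mem (mul_mem (mul_mem (mul_mem (pow_mem hy _) (pow_mem hx _)) hy) hx) _)

theorem apply (hι : Function.Injective ι) (h : Act ι m b) {w v : Hs} (e : b * ι w * b⁻¹ = ι v) :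
    v.a = m.p * w.a + m.q * w.b ∧ v.b = m.r * w.a + m.s * w.b := by
  obtain ⟨u, e1, e2⟩ := h w
  rwa [hι (e.symm.trans e1)]

theorem unique (hι : Function.Injective ι) (h1 : Act ι m b) (h2 : Act ι n b) : m = n := by
  obtain ⟨u, e1, e2, e3⟩ := h1 ⟨1, 0, 0⟩
  obtain ⟨v, f1, f2, f3⟩ := h1 ⟨0, 1, 0⟩
  obtain ⟨e4, e5⟩ := h2.apply hι e1
  obtain ⟨f4, f5⟩ := h2.apply hι f1
  ext
  · simpa using e2.symm.trans e4
  · simpa using f2.symm.trans f4
  · simpa using e3.symm.trans e5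
  · simpa using f3.symm.trans f5

theorem center (h : Act ι m b) :
    b * ι ⟨0, 0, 1⟩ * b⁻¹ = ι ⟨0, 0, m.p * m.s - m.q * m.r⟩ := by
  obtain ⟨u, e1, e2, e3⟩ := h ⟨1, 0, 0⟩
  obtain ⟨v, f1, f2, f3⟩ := h ⟨0, 1, 0⟩
  have e : (⟨0, 0, 1⟩ : Hs) = (⟨0, 1, 0⟩ : Hs)⁻¹ * (⟨1, 0, 0⟩ : Hs)⁻¹ * ⟨0, 1, 0⟩ * ⟨1, 0, 0⟩ := by
    decide
  have e' : (⟨0, 0, m.p * m.s - m.q * m.r⟩ : Hs) = v⁻¹ * u⁻¹ * v * u := by
    ext <;> simp [e2, e3, f2, f3]; ring
  rw [e, e']
  simp only [map_mul, map_inv]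
  rw [← e1, ← f1]; group

end Act

theorem relIndex_cent_le (S : Subgroup G) (x : G) {T : Set G} (hT : T.Finite)
    (h : ∀ s ∈ S, s * x * s⁻¹ ∈ T) : (centralizer {x}).relIndex S ≤ T.ncard := by
  let _ : MulAction S G := MulAction.compHom G (MulAut.conj.comp S.subtype)
  have h0 : ∀ s : S, s • x = s * x * (s : G)⁻¹ := fun _ => rfl
  have h1 : (centralizer {x}).subgroupOf S = MulAction.stabilizer S x := by
    ext s
    rw [mem_subgroupOf, mem_centralizer_singleton_iff, MulAction.mem_stabilizer_iff, h0,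
      mul_inv_eq_iff_eq_mul]
  rw [relIndex, h1, MulAction.index_stabilizer]
  exact Set.ncard_le_ncard (by rintro _ ⟨s, rfl⟩; exact h s s.2) hT

theorem card_inf_mul (H S : Subgroup G) :
    Nat.card (S ⊓ H : Subgroup G) * H.relIndex S = Nat.card S := by
  rw [← card_mul_index (H.subgroupOf S), relIndex]
  congr 1
  rw [inf_comm, ← inf_subgroupOf_right]
  exact (Nat.card_congr (subgroupOfEquivOfLe inf_le_right).toEquiv).symm

/-- The normaliser of a self-centralising subgroup of order `49`. -/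
theorem card_normalizer_le [Finite G] {E : Subgroup G} (hE : Nat.card E = 49) {s t : G}
    (hs : s ∈ E) (ht : t ∈ E) (h7 : orderOf s = 7) (hts : t ∉ zpowers s)
    (hc : ∀ x, x * s = s * x → x * t = t * x → x ∈ E) :
    Nat.card (normalizer (E : Set G)) ≤ 98784 := by
  have hE' : (E : Set G).ncard = 49 := by rw [← hE]; rfl
  have h1 := relIndex_cent_le (normalizer (E : Set G)) s (T := (E : Set G) \ {1}) (Set.toFinite _)
    fun x hx => ⟨(mem_normalizer_iff.1 hx s).1 hs, fun e => by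
      rw [conj_eq_one_iff.1 e] at h7; simp at h7⟩
  have h2 := relIndex_cent_le (normalizer (E : Set G) ⊓ centralizer {s}) t
    (T := (E : Set G) \ zpowers s) (Set.toFinite _)
    fun x hx => ⟨(mem_normalizer_iff.1 hx.1 t).1 ht, fun ⟨k, e⟩ => hts ⟨k, by
      have h3 : Commute x s := mem_centralizer_singleton_iff.1 hx.2
      have h4 : s ^ k = x * t * x⁻¹ := e
      have h5 := (h3.zpow_right k).eq
      show s ^ k = t
      rw [h4] at h5
      rw [h4]
      calc x * t * x⁻¹ = x⁻¹ * (x * (x * t * x⁻¹)) := by group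
        _ = t := by rw [h5]; group⟩⟩
  rw [Set.ncard_sdiff_singleton_of_mem E.one_mem, hE'] at h1
  rw [Set.ncard_sdiff (zpowers_le.2 hs), hE',
    show (zpowers s : Set G).ncard = 7 from (Nat.card_zpowers s).trans h7] at h2
  have h3 := card_le_of_le (show normalizer (E : Set G) ⊓ centralizer {s} ⊓ centralizer {t} ≤ E from
    fun x hx => hc x (mem_centralizer_singleton_iff.1 hx.1.2) (mem_centralizer_singleton_iff.1 hx.2))
  rw [← card_inf_mul (centralizer {s}), ← card_inf_mul (centralizer {t}) (_ ⊓ _)]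
  calc _ ≤ 49 * 42 * 48 := Nat.mul_le_mul (Nat.mul_le_mul (hE ▸ h3) h2) h1
    _ = _ := by norm_num

/-- An element of order seven lies in every subgroup of index at most six. -/
theorem mem_of_index_le [Finite G] {L N : Subgroup G} (hle : L ≤ N) (h1 : 16464 ≤ Nat.card L)
    (h2 : Nat.card N ≤ 98784) {y : G} (hy : y ∈ N) (h7 : y ^ 7 = 1) : y ∈ L := by
  have h3 := card_inf_mul L N
  rw [inf_eq_right.2 hle] at h3
  have h4 : Nat.card (N ⧸ L.subgroupOf N) ≤ 6 := by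
    show L.relIndex N ≤ 6
    by_contra hc
    have := Nat.mul_le_mul h1 (not_le.1 hc)
    omega
  let σ := MulAction.toPermHom N (N ⧸ L.subgroupOf N) ⟨y, hy⟩
  have h5 : σ ^ 7 = 1 := by
    rw [← map_pow, show (⟨y, hy⟩ : N) ^ 7 = 1 from Subtype.ext h7, map_one]
  have h6 : orderOf σ ∣ (Nat.card (N ⧸ L.subgroupOf N)).factorial := by
    rw [← Nat.card_perm]; exact orderOf_dvd_natCard σ
  have h8 : σ = 1 := by
    rw [← orderOf_eq_one_iff]
    refine Nat.eq_one_of_dvd_coprimes (by norm_num : Nat.Coprime 7 (Nat.factorial 6))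
      (orderOf_dvd_of_pow_eq_one h5) (h6.trans (Nat.factorial_dvd_factorial h4))
  have h9 : (((⟨y, hy⟩ : N) * 1 : N) : N ⧸ L.subgroupOf N) = ((1 : N) : N ⧸ L.subgroupOf N) :=
    Equiv.congr_fun h8 ((1 : N) : N ⧸ L.subgroupOf N)
  have := QuotientGroup.eq.1 h9.symm
  simpa [mem_subgroupOf] using this

/-- The subgroup generated by the elements of order seven of a normaliser. -/
def LL (E : Subgroup G) : Subgroup G := closure {y | y ∈ normalizer (E : Set G) ∧ y ^ 7 = 1}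

theorem mem_normalizer_pair [Finite G] {s t y : G} (h1 : y * s * y⁻¹ ∈ closure {s, t})
    (h2 : y * t * y⁻¹ ∈ closure {s, t}) : y ∈ normalizer (closure {s, t} : Set G) := by
  refine mem_normalizer_fintype fun n hn => ?_
  have : closure {s, t} ≤ (closure {s, t}).comap (MulAut.conj y).toMonoidHom := by
    rw [closure_le]
    rintro _ (rfl | rfl)
    exacts [h1, h2]
  exact this hn

/-- The matrices induced by the normaliser of the centre. -/
def ML : List M2 := ([1, 2, 3, 4, 5, 6] : List (ZMod 7)).flatMap fun a =>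
  [⟨a, 0, 0, a⟩, ⟨a, 0, 0, -a⟩, ⟨0, a, a, 0⟩, ⟨0, a, -a, 0⟩]

theorem ML_fix : ∀ m ∈ ML, ∀ a b : ZMod 7, m.p * m.s - m.q * m.r = 1 → a = m.p * a + m.q * b →
    b = m.r * a + m.s * b → (a = 0 ∧ b = 0) ∨ m = ⟨1, 0, 0, 1⟩ := by decide +kernel

theorem ML_eig : ∀ m ∈ ML, ∀ a b : ZMod 7, -a = m.p * a + m.q * b → -b = m.r * a + m.s * b →
    ∀ c d : ZMod 7, c = m.p * c + m.q * d → d = m.r * c + m.s * d → d * a - b * c ≠ 0 →
      (b = 0 ∧ c = 0) ∨ (a = 0 ∧ d = 0) ∨ (a = b ∧ c = -d) ∨ (a = -b ∧ c = d) := by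
  decide +kernel

instance fact_seven : Fact (Nat.Prime 7) := ⟨by norm_num⟩

theorem card_cent {v : Hs} (h : v.a ≠ 0 ∨ v.b ≠ 0) : Nat.card (centralizer {v}) = 49 := by
  let f : Hs →* Multiplicative (ZMod 7) := MonoidHom.mk'
    (fun y => Multiplicative.ofAdd (y.b * v.a - v.b * y.a)) fun y z => by
      rw [← ofAdd_add]; congr 1; simp; ring
  have h1 : f.ker = centralizer {v} := by
    ext y
    rw [Hs.mem_cent, MonoidHom.mem_ker, ← sub_eq_zero (a := y.b * v.a)]; rfl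
  have h2 : f.range = ⊤ := by
    rw [eq_top_iff]
    intro c _
    rcases h with h | h
    · exact ⟨⟨0, c.toAdd / v.a, 0⟩, congrArg Multiplicative.ofAdd (by
        simp [div_mul_cancel₀ _ h]; rfl)⟩
    · exact ⟨⟨-c.toAdd / v.b, 0, 0⟩, congrArg Multiplicative.ofAdd (by
        simp [mul_div_cancel₀ _ h]; rfl)⟩
  have h3 := card_mul_index f.ker
  rw [index_ker, h2, card_top, Hs.card, h1] at h3
  rw [show Nat.card (Multiplicative (ZMod 7)) = 7 from Nat.card_zmod 7] at h3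
  omega

theorem cent_eq {v w : Hs} (hv : v.a ≠ 0 ∨ v.b ≠ 0) (hw : w.a ≠ 0 ∨ w.b ≠ 0)
    (h : v.b * w.a = w.b * v.a) : centralizer {v} = centralizer {w} := by
  have key : ∀ a b c d : ZMod 7, a ≠ 0 ∨ b ≠ 0 → b * c = d * a → ∀ e f : ZMod 7,
      f * a = b * e → f * c = d * e := fun a b c d h1 h2 e f h3 =>
    h1.elim (fun h1 => mul_left_cancel₀ h1 (by linear_combination c * h3 + e * h2))
      fun h1 => mul_left_cancel₀ h1 (by linear_combination f * h2 + d * h3)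
  ext y
  rw [Hs.mem_cent, Hs.mem_cent]
  exact ⟨key _ _ _ _ hv h _ _, key _ _ _ _ hw h.symm _ _⟩

theorem orderOf_cen : orderOf (⟨0, 0, 1⟩ : Hs) = 7 := orderOf_eq_prime (by decide) (by decide)

/-- The normaliser of the centre is known. -/
def Loc (ι : Hs →* G) : Prop :=
  ∀ b, b * ι ⟨0, 0, 1⟩ * b⁻¹ ∈ zpowers (ι ⟨0, 0, 1⟩) →
    ∃ m ∈ ML, Act ι m b ∧ (m = ⟨1, 0, 0, 1⟩ → b ∈ ι.range)

theorem Loc.LL_eq [Finite G] {ι : Hs →* G} (h : Loc ι) (hι : Function.Injective ι) {v : Hs}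
    (hv : v.a ≠ 0 ∨ v.b ≠ 0) {s : Set G} (h1 : 16464 ≤ Nat.card (closure s))
    (h2 : ∀ y ∈ s, y ∈ normalizer ((centralizer {v}).map ι : Set G) ∧ y ^ 7 = 1) :
    closure s = LL ((centralizer {v}).map ι) := by
  refine le_antisymm (closure_mono h2) ((closure_le _).2 fun y hy =>
    mem_of_index_le ((closure_le _).2 fun x hx => (h2 x hx).1) h1 ?_ hy.1 hy.2)
  refine card_normalizer_le (s := ι ⟨0, 0, 1⟩) (t := ι v)
    (by rw [card_map_of_injective hι, card_cent hv]) ⟨_, Hs.mem_cent.2 (by simp), rfl⟩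
    ⟨_, Hs.mem_cent.2 rfl, rfl⟩ ?_ ?_ fun x h3 h4 => ?_
  · rw [orderOf_injective ι hι, orderOf_cen]
  · rintro ⟨k, hk⟩
    have h5 : (⟨0, 0, 1⟩ : Hs) ^ k = v := hι (by rw [map_zpow]; exact hk)
    have h6 : v ∈ centralizer {(⟨1, 0, 0⟩ : Hs)} := h5 ▸ zpow_mem (Hs.mem_cent.2 (by simp)) k
    have h7 : v ∈ centralizer {(⟨0, 1, 0⟩ : Hs)} := h5 ▸ zpow_mem (Hs.mem_cent.2 (by simp)) k
    rw [Hs.mem_cent] at h6 h7
    exact hv.elim (fun e => e (by simpa using h7.symm)) fun e => e (by simpa using h6)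
  · have h5 : x * ι ⟨0, 0, 1⟩ * x⁻¹ = ι ⟨0, 0, 1⟩ := by rw [h3, mul_inv_cancel_right]
    obtain ⟨m, hm, h6, h7⟩ := h x (by rw [h5]; exact mem_zpowers _)
    have h8 := congrArg Hs.c (hι (h6.center.symm.trans h5))
    obtain ⟨h9, h10⟩ := h6.apply hι (show x * ι v * x⁻¹ = ι v by rw [h4, mul_inv_cancel_right])
    rcases ML_fix m hm _ _ h8 h9 h10 with ⟨e1, e2⟩ | e
    · exact absurd hv (by simp [e1, e2])
    · obtain ⟨u, rfl⟩ := h7 e
      exact ⟨u, mem_centralizer_singleton_iff.2 (hι (by rw [map_mul, map_mul, h4])), rfl⟩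

/-- Root elements and a torus element of `L₃(7)`. -/
def Cfg (x y z p q h : G) : Prop :=
  HT x y z ∧ p ^ 7 = 1 ∧ q ^ 7 = 1 ∧ p * x * p⁻¹ = x ∧ p * z * p⁻¹ = x ^ 4 * z ∧
    q * y * q⁻¹ = y ∧ q * z * q⁻¹ = y ^ 3 * z ∧ h * x * h⁻¹ = x⁻¹ ∧ h * y * h⁻¹ = y ∧
    h * z * h⁻¹ = z⁻¹ ∧ 16464 ≤ Nat.card (closure {x, y, p}) ∧ 16464 ≤ Nat.card (closure {x, y, q})

theorem Cfg.map_iff {K : Type*} [Group K] (f : G →* K) (hf : Function.Injective f)
    {x y z p q h : G} : Cfg (f x) (f y) (f z) (f p) (f q) (f h) ↔ Cfg x y z p q h := by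
  have e : ∀ a b c : G, Nat.card (closure {f a, f b, f c}) = Nat.card (closure {a, b, c}) :=
    fun a b c => by
      rw [← card_map_of_injective (K := closure {a, b, c}) hf, MonoidHom.map_closure]
      simp only [Set.image_insert_eq, Set.image_singleton]
  simp only [Cfg, HT, e, ne_eq, ← map_pow, ← map_mul, ← map_inv, hf.eq_iff, map_eq_one_iff f hf]

theorem closure_four (x y p q : G) :
    closure {x, y, p, q} = closure {x, y, p} ⊔ closure {x, y, q} := by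
  rw [← Subgroup.closure_union]; congr 1; ext; simp; tauto

/-- The two candidates. -/
def PP (ι : Hs →* G) (v w : Hs) : Subgroup G :=
  LL ((centralizer {v}).map ι) ⊔ LL ((centralizer {w}).map ι)

theorem Loc.classify_aux [Finite G] {ι : Hs →* G} (hL : Loc ι) (hι : Function.Injective ι)
    {x y z p q h : G} (C : Cfg x y z p q h) (hr : C.1.ι.range = ι.range) :
    closure {x, y, p, q} = PP ι ⟨1, 0, 0⟩ ⟨0, 1, 0⟩ ∨
      closure {x, y, p, q} = PP ι ⟨1, 1, 0⟩ ⟨1, -1, 0⟩ := by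
  obtain ⟨T, p7, q7, px, pz, qy, qz, hx, hy, hz, c1, c2⟩ := C
  have key : ∀ v w : Hs, ι v = T.ι w → (centralizer {v}).map ι = (centralizer {w}).map T.ι := by
    intro v w e
    ext g
    constructor
    · rintro ⟨u, hu, rfl⟩
      obtain ⟨u', e'⟩ := hr.ge ⟨u, rfl⟩
      refine ⟨u', mem_centralizer_singleton_iff.2 (T.ι_inj ?_), e'⟩
      rw [map_mul, map_mul, e', ← e, ← map_mul, ← map_mul, mem_centralizer_singleton_iff.1 hu]
    · rintro ⟨u, hu, rfl⟩
      obtain ⟨u', e'⟩ := hr.le ⟨u, rfl⟩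
      refine ⟨u', mem_centralizer_singleton_iff.2 (hι ?_), e'⟩
      rw [map_mul, map_mul, e', e, ← map_mul, ← map_mul, mem_centralizer_singleton_iff.1 hu]
  obtain ⟨A, hA⟩ := hr.le ⟨_, T.ι_x⟩
  obtain ⟨B, hB⟩ := hr.le ⟨_, T.ι_y⟩
  have hZ : ι ⟨0, 0, B.b * A.a - A.b * B.a⟩ = z := by
    rw [show (⟨0, 0, B.b * A.a - A.b * B.a⟩ : Hs) = (A * B)⁻¹ * (B * A) by ext <;> simp <;> ring,
      map_mul, map_inv, map_mul, map_mul, hA, hB, T.2.2.2.2.2.1, inv_mul_cancel_left]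
  have hδ : B.b * A.a - A.b * B.a ≠ 0 := fun e => T.2.2.2.2.2.2 (by rw [← hZ, e]; exact map_one ι)
  have hA0 : A.a ≠ 0 ∨ A.b ≠ 0 := by
    by_contra hc
    push Not at hc
    simp [hc.1, hc.2] at hδ
  have hB0 : B.a ≠ 0 ∨ B.b ≠ 0 := by
    by_contra hc
    push Not at hc
    simp [hc.1, hc.2] at hδ
  have hn : ∀ v w : Hs, ∀ g, T.ι w = g → g ∈ normalizer ((centralizer {v}).map T.ι : Set G) :=
    fun v w g e => le_normalizer_map _ ⟨w, by rw [normalizer_eq_top]; trivial, e⟩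
  have e1 := hL.LL_eq hι hA0 c1 (by
    rw [key A _ (hA.trans T.ι_x.symm)]
    rintro g (e | e | e) <;> rw [show g = _ from e]
    · exact ⟨hn _ _ _ T.ι_x, T.1⟩
    · exact ⟨hn _ _ _ T.ι_y, T.2.1⟩
    · rw [T.cent_x]
      exact ⟨mem_normalizer_pair (by rw [px]; exact subset_closure (by simp)) (by
        rw [pz]; exact mul_mem (pow_mem (subset_closure (by simp)) _) (subset_closure (by simp))),
        p7⟩)
  have e2 := hL.LL_eq hι hB0 c2 (by
    rw [key B _ (hB.trans T.ι_y.symm)]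
    rintro g (e | e | e) <;> rw [show g = _ from e]
    · exact ⟨hn _ _ _ T.ι_x, T.1⟩
    · exact ⟨hn _ _ _ T.ι_y, T.2.1⟩
    · rw [T.cent_y]
      exact ⟨mem_normalizer_pair (by rw [qy]; exact subset_closure (by simp)) (by
        rw [qz]; exact mul_mem (pow_mem (subset_closure (by simp)) _) (subset_closure (by simp))),
        q7⟩)
  have h1 : ι ⟨0, 0, 1⟩ = z ^ (B.b * A.a - A.b * B.a)⁻¹.val := by
    rw [← hZ, ← map_pow, Hs.pow_central, ZMod.natCast_zmod_val, inv_mul_cancel₀ hδ]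
  obtain ⟨m, hm, h2, -⟩ := hL h (by
    rw [h1, ← conj_pow, hz, inv_pow]; exact inv_mem (mem_zpowers _))
  obtain ⟨h3, h4⟩ := h2.apply hι (w := A) (v := A⁻¹) (by rw [map_inv, hA, hx])
  obtain ⟨h5, h6⟩ := h2.apply hι (w := B) (v := B) (by rw [hB, hy])
  rw [closure_four, e1, e2, PP, PP]
  rcases ML_eig m hm _ _ h3 h4 _ _ h5 h6 hδ with ⟨f1, f2⟩ | ⟨f1, f2⟩ | ⟨f1, f2⟩ | ⟨f1, f2⟩
  · left
    rw [cent_eq (w := ⟨1, 0, 0⟩) hA0 (by decide) (by simp [f1]),
      cent_eq (w := ⟨0, 1, 0⟩) hB0 (by decide) (by simp [f2])]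
  · left
    rw [cent_eq (w := ⟨0, 1, 0⟩) hA0 (by decide) (by simp [f1]),
      cent_eq (w := ⟨1, 0, 0⟩) hB0 (by decide) (by simp [f2]), sup_comm]
  · right
    rw [cent_eq (w := ⟨1, 1, 0⟩) hA0 (by decide) (by simp [f1]),
      cent_eq (w := ⟨1, -1, 0⟩) hB0 (by decide) (by simp [f2])]
  · right
    rw [cent_eq (w := ⟨1, -1, 0⟩) hA0 (by decide) (by simp [f1]),
      cent_eq (w := ⟨1, 1, 0⟩) hB0 (by decide) (by simp [f2]), sup_comm]

/-- **There are at most two classes of subgroups with such generators.** -/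
theorem Loc.classify [Finite G] {ι : Hs →* G} (hL : Loc ι) (hι : Function.Injective ι)
    (hS : (Nat.card G).factorization 7 = 3) {x y z p q h : G} (C : Cfg x y z p q h) :
    ∃ g : G, (closure {x, y, p, q}).map (MulAut.conj g).toMonoidHom = PP ι ⟨1, 0, 0⟩ ⟨0, 1, 0⟩ ∨
      (closure {x, y, p, q}).map (MulAut.conj g).toMonoidHom = PP ι ⟨1, 1, 0⟩ ⟨1, -1, 0⟩ := by
  have hc : ∀ κ : Hs →* G, Function.Injective κ →
      Nat.card κ.range = 7 ^ (Nat.card G).factorization 7 := fun κ hκ => by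
    rw [← Nat.card_congr (MonoidHom.ofInjective hκ).toEquiv, Hs.card, hS]; rfl
  obtain ⟨g, hg⟩ := MulAction.exists_smul_eq G (Sylow.ofCard _ (hc _ C.1.ι_inj))
    (Sylow.ofCard _ (hc _ hι))
  have h1 : C.1.ι.range.map (MulAut.conj g).toMonoidHom = ι.range := congrArg Sylow.toSubgroup hg
  have C' := (Cfg.map_iff (MulAut.conj g).toMonoidHom (MulAut.conj g).injective).2 C
  have h2 : C'.1.ι = (MulAut.conj g).toMonoidHom.comp C.1.ι := by
    ext w
    simp only [MonoidHom.comp_apply, HT.ι_apply, map_mul, map_pow]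
  refine ⟨g, ?_⟩
  rw [MonoidHom.map_closure]
  simp only [Set.image_insert_eq, Set.image_singleton]
  exact hL.classify_aux hι C' (by rw [h2, MonoidHom.range_comp, h1])

end CfsgLib.ON
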