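import Mathlib
import Cfsg.Agent.Lib.ON.Short
import Cfsg.Agent.Lib.CosetEnum.Iso

/-! Data for the subgroups PSL(3,7) of the O'Nan group (generated). -/

set_option maxRecDepth 100000
set_option Elab.async false

namespace CfsgLib.ON

open CfsgLib.CosetEnum

/-- x1, x2, z, y1, y2, r, b1, b2 -/
def xs : List (List ℕ) := [[8, 6, 8, 6, 4, 6, 8, 10],
  [12, 8, 10, 12, 8, 6, 8, 6, 4, 6],
  [4, 6, 8, 6, 8, 10, 8, 6, 4, 6, 8, 6, 8, 10, 8, 6],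
  [2, 8, 6, 8, 10, 8, 6, 4, 2, 6],
  [2, 8, 6, 8, 4, 6, 8, 10, 12, 6],
  [2, 12, 4, 2, 6, 8, 10, 8, 6, 8, 4, 6, 8, 10, 8, 6, 8, 6],
  [2, 12, 4, 6, 8, 10, 12, 8, 6, 8, 4, 6, 8, 10, 12, 8, 6, 4, 2, 6, 8, 10, 8],
  [12, 8, 10]]
def xR : List (List ℕ) := [[0, 0, 0, 0, 0, 0, 0],
  [2, 2, 2, 2, 2, 2, 2],
  [4, 4, 4, 4, 4, 4, 4],
  [6, 6, 6, 6, 6, 6, 6],
  [8, 8, 8, 8, 8, 8, 8],
  [0, 4, 1, 5],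
  [2, 4, 3, 5],
  [2, 0, 5, 3, 1],
  [6, 0, 7, 1],
  [6, 4, 7, 5, 1, 1, 1, 1],
  [8, 2, 9, 3],
  [8, 4, 9, 5, 3, 3, 3],
  [10, 10, 0, 11, 11, 0],
  [10, 10, 2, 11, 11, 3],
  [10, 10, 4, 11, 11, 4],
  [12, 0, 13, 3, 3],
  [12, 2, 13, 1, 1],
  [14, 0, 15, 3],
  [14, 2, 15, 5, 5, 5, 1, 1, 1, 1, 1, 1]]
def xW : List (List ℕ) := [[], [0], [1], [0, 0], [1, 0], [0, 1], [1, 1], [0, 0, 0], [1, 0, 0], [0, 1, 0], [1, 1, 0], [1, 1, 1], [0, 0, 0, 0], [1, 0, 0, 0], [0, 1, 0, 0], [1, 1, 0, 0], [0, 0, 0, 0, 0], [1, 0, 0, 0, 0], [0, 1, 0, 0, 0], [1, 1, 0, 0, 0], [1, 0, 0, 0, 0, 0], [0, 1, 0, 0, 0, 0], [1, 1, 0, 0, 0, 0], [1, 1, 0, 0, 0, 0, 0]]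
def xN : List (List ℕ) := [[3, 9, 1, 6, 8, 0, 7], [3, 7, 3, 6, 9, 7, 7]]
def xC0 : List Lev := [⟨1, [[0], [1], [2], [3], [4], [5]], [0, 2, 4, 0, 2, 0, 4, 2, 0, 4, 2, 0, 4, 2, 4, 2, 0, 4, 2, 4, 2, 2, 0, 0], 16464⟩]
theorem xC0_ok : chainB nets (imOf [1, 2, 3, 4, 5, 6]) 17 [nth [] xs 0, nth [] xs 1, nth [] xs 3] xC0 [] = true := by decide +kernel
def xC1 : List Lev := [⟨1, [[0], [1], [2], [3], [4], [5]], [0, 2, 4, 0, 2, 0, 4, 0, 2, 0, 4, 0, 2, 0, 4, 0, 4, 0, 2, 0, 4, 0], 16464⟩]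
theorem xC1_ok : chainB nets (imOf [1, 2, 3, 4, 5, 6]) 17 [nth [] xs 0, nth [] xs 1, nth [] xs 4] xC1 [] = true := by decide +kernel
def xF : List ℕ := [0, 45892, 47492, 55106, 59434, 66874, 71246, 103906, 108739, 110376, 110722, 115029, 117641, 118074, 119609]
def xS : List ℕ := [3, 3, 0, 3, 3, 3, 0]
def xY : List ℕ := [0, 4, 6, 0, 8, 1, 6, 10, 8, 1, 6, 4, 0, 6, 8]

end CfsgLib.ON
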