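import Mathlib
import Cfsg.Agent.Lib.ON.L37
import Cfsg.Agent.Lib.ON.L7Data
import Cfsg.Agent.Lib.CosetEnum.Restrict

/-! Kernel checks for the subgroups `PSL(3, 7)` of the O'Nan group. -/

set_option maxRecDepth 100000
set_option Elab.async false

namespace CfsgLib.ON

open CfsgLib.CosetEnum

theorem xs_hs : allL (allL fun x => Bool.rec false (Nat.blt x 14) (Nat.ble 2 x)) xs = true := by
  decide +kernel

/-- All relators in the letters of `xs`. -/
noncomputable def xT : List (List ℕ) := mapL (expand im xs) xR ++
  [expand im xs (nth [] xN 0) ++ pushI im [8, 10] [], expand im xs (nth [] xN 1) ++ pushI im [6, 4] []]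

theorem xT3a : allL (fun w => fixesP nets w 3) (xT.take 11) = true := by decide +kernel
theorem xT3b : allL (fun w => fixesP nets w 3) (xT.drop 11) = true := by decide +kernel
theorem xT593a : allL (fun w => fixesP nets w 593) (xT.take 11) = true := by decide +kernel
theorem xT593b : allL (fun w => fixesP nets w 593) (xT.drop 11) = true := by decide +kernel
theorem z_moves : fixesP nets (nth [] xs 2) 3 = false := by decide +kernel

theorem xF_fix : Nat.beq (Nat.xor (movedB nets 122760 17 (nth [] xs 2) (List.range 17))
    (liftS xF (Nat.sub (Nat.shiftLeft 1 15) 1))) (Nat.sub (Nat.shiftLeft 1 122760) 1) = true := by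
  decide +kernel

/-- A schedule for a suborbit. -/
noncomputable def sS (i : ℕ) : List ℕ := (subs.getD i ⟨[], 0, [], []⟩).s1

theorem so0 : orbitB nets hs (sS 0) 1 17 58653 = true := by decide +kernel
theorem so1 : orbitB nets hs (sS 1) 9 17 52136 = true := by decide +kernel
theorem so2 : orbitB nets hs (sS 2) 5 17 5586 = true := by decide +kernel
theorem so3 : orbitB nets hs (sS 3) 14 17 6384 = true := by decide +kernel

/-- The suborbit of length 6384. -/
noncomputable def oD : ℕ := bfs nets hs (sS 3) (Nat.shiftLeft 1 14)

/-- An orbit on the fixed points. -/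
noncomputable def oF : ℕ := bfs nets [nth [] xs 0, nth [] xs 1, nth [] xs 6, nth [] xs 7] xS
  (Nat.shiftLeft 1 45892)

theorem xF_sub : allL (memB oD) xF.tail = true := by decide +kernel
theorem oD_not : memB oD 16822 = false := by decide +kernel
theorem xF_orb : allL (memB oF) xF.tail = true := by decide +kernel
theorem xY1 : movesP nets xY 0 45892 = true := by decide +kernel
theorem xY2 : movesP nets xY 16822 47492 = true := by decide +kernel

end CfsgLib.ON
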