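import Mathlib
import Cfsg.Agent.Lib.MultC.ON.Out2

/-! An automorphism of the O'Nan group that moves the class of the point stabilisers. -/

set_option autoImplicit false
set_option maxRecDepth 100000

namespace CfsgLib.ON.OutAut

open CfsgLib.Comput CfsgLib.MultC CfsgLib.MultC.ON CfsgLib.MultC.ON.O2

open CfsgLib.Fischer

theorem exists_aut : ∃ ρ : Cfsg.Spor.ON ≃* Cfsg.Spor.ON, ∀ p < 122760,
    CfsgLib.ON.φ (ρ (CfsgLib.ON.g 3 * CfsgLib.ON.g 4)) p ≠ p := by
  obtain ⟨u, hu⟩ := (realU real0).letters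
  have M := SM.salt (CfsgLib.MultC.ON.model.sm hu)
  have ht : ∀ w, triv w = true → Comput.evL u (w.map (nth 0 vs)) = 1 := fun w h =>
    CfsgLib.ON.base _ fun p hp => by
      have hn : p < 122760 := by revert p; decide
      unfold triv eqOn at h
      exact (smul_eq_of_beq M hn hn (allL_sound h p hp)).trans (one_smul _ (ptN CfsgLib.ON.φ p))
  have hl : ∀ x, CosetEnum.evL (fun i => ev u (nth 0 vs (2 * i))) x = ev u (nth 0 vs x) := fun x => by
    unfold CosetEnum.evL
    dsimp only
    split_ifs with h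
    · rw [show 2 * (x / 2) = x by omega]
    · by_cases hx : x < 14
      · have h1 := ht _ (lt_step (lt_nil _) i0 (x / 2) (by omega))
        rw [show 2 * (x / 2) + 1 = x by omega] at h1
        exact inv_eq_of_mul_eq_one_left ((evL_two _ _ _).symm.trans h1)
      · have h2 : ∀ m, 14 ≤ m → ev u (nth 0 vs m) = 1 := fun m hm => by
          rw [nth_eq_getD, List.getD_eq_default _ _ hm, ev_zero]
        rw [h2 x (by omega), h2 _ (by omega), inv_one]
  obtain ⟨ρ, hρ⟩ := CfsgLib.ON.exists_hom (f := fun i => ev u (nth 0 vs (2 * i))) fun w hw => by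
    obtain ⟨r, hr, rfl⟩ := exists_nth [] hw
    refine Eq.trans ?_ (ht _ ((lt_step (lt_step (lt_step (lt_step (lt_step (lt_step (lt_step (lt_step (lt_step (lt_step (lt_step (lt_step (lt_step (lt_nil _) r0) r1) r2) r3) r4) r5) r6) r7) r8) r9) r10) r11) r12) r hr))
    rw [CosetEnum.ev, Comput.evL, List.map_map]
    exact congrArg (fun F => (List.map F _).prod) (funext hl)
  have hy : ρ (CfsgLib.ON.g 3 * CfsgLib.ON.g 4) = Comput.evL u [nth 0 vs 6, nth 0 vs 8] := by
    rw [map_mul, evL_two]
    exact congrArg₂ _ (hρ .c) (hρ .d)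
  have hinj := (CfsgLib.ON.ker_cases ρ).resolve_right fun h =>
    smul_ne_of_noFix M nf (q := 0) (by norm_num) (by rw [← hy, h, one_smul])
  refine ⟨MulEquiv.ofBijective ρ (Finite.injective_iff_bijective.mp hinj), fun p hp => ?_⟩
  have := smul_ne_of_noFix M nf hp
  rw [← hy] at this
  exact this

end CfsgLib.ON.OutAut
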