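import Mathlib
import Cfsg.Agent.Lib.ON.L7Chk
import Cfsg.Agent.Lib.ON.Heis7
import Cfsg.Agent.Lib.ON.OutAut
import Cfsg.Agent.Lib.ON.Cent

/-!
# The subgroups `PSL(3, 7)` of the O'Nan group form one class under automorphisms
-/

set_option maxRecDepth 10000

namespace CfsgLib.ON

open CfsgLib.CosetEnum Cfsg.Spor Subgroup Pointwise

/-- The chosen elements of the point stabiliser. -/
noncomputable def xf (i : ℕ) : ON := ev g (nth [] xs i)

theorem xs_le : gen g xs ≤ gen g hs := gen_le.2 fun w hw => ev_mem fun x hx => by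
  obtain ⟨h1, h2⟩ := band_true (allL_sound (allL_sound xs_hs w hw) x hx)
  have h3 : 2 ≤ x := Nat.le_of_ble_eq_true h1
  have h4 : x < 14 := by simpa [Nat.blt_eq] using h2
  refine mem_gen_of_letter g ?_
  interval_cases x <;> decide

theorem xf_mem (i : ℕ) : xf i ∈ gen g hs :=
  xs_le (nth_prop (P := fun u => ev g u ∈ gen g xs) (d := []) (one_mem _)
    (fun _ ha => ev_mem_gen g ha) i)

theorem xT_one : ∀ w ∈ xT, ev g w = 1 :=
  S.eq_one_of_mem baseH.2 (fun w hw => by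
    rcases List.mem_append.1 hw with hw | hw
    · rw [mapL_eq, List.mem_map] at hw
      obtain ⟨r, -, rfl⟩ := hw
      exact xs_le (ev_expand_mem hi xs r)
    · simp only [List.mem_cons, List.not_mem_nil, or_false] at hw
      rcases hw with rfl | rfl <;> rw [ev_append, ev_pushI hi, ev_nil, mul_one] <;>
        exact mul_mem (xs_le (ev_expand_mem hi xs _))
          (inv_mem (ns_le hi (ev_mem_gen g (by decide)))))
    (List.forall_mem_cons.2 ⟨List.take_append_drop 11 xT ▸ allL_append xT3a xT3b,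
      List.forall_mem_singleton.2 (List.take_append_drop 11 xT ▸ allL_append xT593a xT593b)⟩)

theorem xR_eq {w : List ℕ} (hw : w ∈ xR) {a b : ON} (e : ev xf w = a * b⁻¹) : a = b := by
  have h := xT_one (expand im xs w) (List.mem_append_left _ (by
    rw [mapL_eq]; exact List.mem_map_of_mem hw))
  rw [ev_expand hi] at h
  exact mul_inv_eq_one.1 (e.symm.trans h)

theorem gen_three (i : ℕ) : gen g [nth [] xs 0, nth [] xs 1, nth [] xs i] =
    closure {xf 0, xf 1, xf i} := by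
  rw [gen]; congr 1; ext; simp [xf, eq_comm]

theorem cfg0 : Cfg (xf 0) (xf 1) (xf 2) (xf 3) (xf 4) (xf 5 * xf 5) := by
  refine ⟨⟨xR_eq (w := xR.getD 0 []) (by decide) ?_, xR_eq (w := xR.getD 1 []) (by decide) ?_,
    xR_eq (w := xR.getD 2 []) (by decide) ?_, xR_eq (w := xR.getD 5 []) (by decide) ?_,
    xR_eq (w := xR.getD 6 []) (by decide) ?_, xR_eq (w := xR.getD 7 []) (by decide) ?_,
    fun h => S.fixesP_false z_moves (by rw [← xf, h]; simp)⟩,
    xR_eq (w := xR.getD 3 []) (by decide) ?_, xR_eq (w := xR.getD 4 []) (by decide) ?_,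
    xR_eq (w := xR.getD 8 []) (by decide) ?_, xR_eq (w := xR.getD 9 []) (by decide) ?_,
    xR_eq (w := xR.getD 10 []) (by decide) ?_, xR_eq (w := xR.getD 11 []) (by decide) ?_,
    xR_eq (w := xR.getD 12 []) (by decide) ?_, xR_eq (w := xR.getD 13 []) (by decide) ?_,
    xR_eq (w := xR.getD 14 []) (by decide) ?_,
    gen_three 3 ▸ S.le_card hi le_rfl xC0_ok, gen_three 4 ▸ S.le_card hi le_rfl xC1_ok⟩ <;>
  simp [xR, ev_cons, ev_nil, evL, pow_succ, mul_assoc]

theorem mem_ns_of_seven {x : ON} (hx : x ∈ gen g hs) (h : x ^ 7 = 1) : x ∈ gen g ns := by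
  have h1 : x ^ 4 * x ^ 4 ∈ gen g ns :=
    mul_self_mem_of_index_two index_ns (⟨_, pow_mem hx 4⟩ : gen g hs)
  rwa [← pow_add, show 4 + 4 = 7 + 1 from rfl, pow_succ, h, one_mul] at h1

theorem closure_eq_ns : closure {xf 0, xf 1, xf 3, xf 4} = gen g ns := by
  refine le_antisymm ((closure_le _).2 ?_) (gen_le.2 fun w hw => ?_)
  · rintro _ (rfl | rfl | rfl | rfl)
    exacts [mem_ns_of_seven (xf_mem _) cfg0.1.1, mem_ns_of_seven (xf_mem _) cfg0.1.2.1,
      mem_ns_of_seven (xf_mem _) cfg0.2.1, mem_ns_of_seven (xf_mem _) cfg0.2.2.1]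
  · have key : ∀ u v : List ℕ, expand im xs u ++ pushI im v [] ∈ xT →
        (∀ x ∈ u, x / 2 ∈ [0, 1, 3, 4]) → ev g v ∈ closure {xf 0, xf 1, xf 3, xf 4} := by
      intro u v h1 h2
      have h3 := xT_one _ h1
      rw [ev_append, ev_pushI hi, ev_nil, mul_one, mul_inv_eq_one, ev_expand hi] at h3
      rw [← h3]
      refine ev_mem fun x hx => subset_closure ?_
      have h4 := h2 x hx
      simp only [List.mem_cons, List.not_mem_nil, or_false] at h4
      rcases h4 with h4 | h4 | h4 | h4 <;> simp [h4, xf]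
    rcases List.mem_cons.1 hw with rfl | hw
    · exact key (nth [] xN 0) _ (by simp [xT]) (by decide)
    · obtain rfl := List.mem_singleton.1 hw
      exact key (nth [] xN 1) _ (by simp [xT]) (by decide)

/-- The normaliser of the centre of the Sylow subgroup. -/
noncomputable abbrev BB : Subgroup ON := normalizer (zpowers (xf 2) : Set ON)

theorem mem_BB {b : ON} (h : b * xf 2 * b⁻¹ ∈ zpowers (xf 2)) : b ∈ BB :=
  mem_normalizer_fintype fun _ ⟨k, hk⟩ => by
    rw [← hk, ← conj_zpow]; exact zpow_mem h k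

theorem mem_xF (p : ℕ) : p ∈ xF ↔ p < 122760 ∧ φ (xf 2) p = p :=
  S.mem_iff_fix (K := 17) (by norm_num) rfl xF_fix p

theorem BB_xF {x : ON} (hx : x ∈ BB) {p : ℕ} (hp : p ∈ xF) : φ x p ∈ xF := by
  rw [mem_xF] at hp ⊢
  refine ⟨S.gen_lt (ys := top) (top_eq ▸ mem_top x) hp.1, ?_⟩
  have h1 : x⁻¹ * xf 2 * x⁻¹⁻¹ ∈ stabP φ p :=
    (zpowers_le.2 (mem_stabP.2 hp.2)) ((mem_normalizer_iff.1 (inv_mem hx) _).1 (mem_zpowers _))
  rw [mem_stabP, inv_inv, map_mul, map_mul, map_inv, Equiv.Perm.mul_apply, Equiv.Perm.mul_apply,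
    Equiv.Perm.inv_eq_iff_eq] at h1
  exact h1

theorem act_mem {m : M2} {b : ON} (h : Act cfg0.1.ι m b) : b ∈ BB := by
  have h1 := h.center
  rw [cfg0.1.ι_z] at h1
  refine mem_BB ?_
  rw [h1, HT.ι_apply, ZMod.val_zero, pow_zero, pow_zero, one_mul, one_mul]
  exact pow_mem (mem_zpowers _) _

theorem act6 : Act cfg0.1.ι ⟨0, 2, 2, 0⟩ (xf 6) :=
  Act.of_gen (v := ⟨0, 2, 0⟩) (w := ⟨2, 0, 0⟩)
    (by
      rw [cfg0.1.ι_x, HT.ι_apply]
      refine xR_eq (w := xR.getD 15 []) (by decide) ?_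
      simp [xR, ev_cons, ev_nil, evL, pow_succ, mul_assoc, show (2 : ZMod 7).val = 2 from rfl])
    (by
      rw [cfg0.1.ι_y, HT.ι_apply]
      refine xR_eq (w := xR.getD 16 []) (by decide) ?_
      simp [xR, ev_cons, ev_nil, evL, pow_succ, mul_assoc, show (2 : ZMod 7).val = 2 from rfl])

theorem act7 : Act cfg0.1.ι ⟨0, 6, 1, 0⟩ (xf 7) :=
  Act.of_gen (v := ⟨0, 1, 0⟩) (w := ⟨6, 0, 3⟩)
    (by
      rw [cfg0.1.ι_x, cfg0.1.ι_y]
      refine xR_eq (w := xR.getD 17 []) (by decide) ?_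
      simp [xR, ev_cons, ev_nil, evL, mul_assoc])
    (by
      rw [cfg0.1.ι_y, HT.ι_apply]
      refine xR_eq (w := xR.getD 18 []) (by decide) ?_
      simp [xR, ev_cons, ev_nil, evL, pow_succ, mul_assoc, show (6 : ZMod 7).val = 6 from rfl,
        show (3 : ZMod 7).val = 3 from rfl])

theorem orbS_eq {Γ : Type*} [Group Γ] {ψ : Γ →* Equiv.Perm ℕ} {H : Subgroup Γ} {p q : ℕ}
    (h : q ∈ orbS ψ H p) : orbS ψ H q = orbS ψ H p := by
  obtain ⟨x, hx, rfl⟩ := h
  ext r
  exact ⟨fun ⟨y, hy, e⟩ => ⟨y * x, mul_mem hy hx, by rw [map_mul]; exact e⟩,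
    fun ⟨y, hy, e⟩ => ⟨y * x⁻¹, mul_mem hy (inv_mem hx), by rw [map_mul, ← e]; simp⟩⟩

theorem tail_mem {p : ℕ} (hp : p ∈ xF) (h0 : p ≠ 0) : p ∈ xF.tail :=
  (List.mem_cons.1 hp).resolve_left h0

theorem tail_sub {p : ℕ} (hp : p ∈ xF.tail) : p ∈ orbS φ (gen g hs) 14 := by
  rw [(S.orbitB_sound so3).1, ← oD]
  exact memB_sound (allL_sound xF_sub p hp)

theorem not_sub : 16822 ∉ orbS φ (gen g hs) 14 := by
  rw [(S.orbitB_sound so3).1, ← oD]
  have h1 := oD_not
  rw [memB_eq] at h1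
  exact fun hc => absurd (h1.symm.trans hc) (by simp)

theorem BB_le : BB ≤ gen g hs := fun x hx => by
  rw [hs_eq, mem_stabP]
  by_contra hc
  have h1 := xF_orb
  rw [oF] at h1
  have m : ∀ u y, cfg0.1.ι u = y → y ∈ BB := fun u y e => e ▸ act_mem (Act.inner _ u)
  obtain ⟨b, hb, e⟩ := S.bfs_orbit (H := BB) (fun w hw => by
    simp only [List.mem_cons, List.not_mem_nil, or_false] at hw
    rcases hw with rfl | rfl | rfl | rfl
    exacts [m _ _ cfg0.1.ι_x, m _ _ cfg0.1.ι_y, act_mem act6, act_mem act7]) 45892 xS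
    (memB_sound (allL_sound h1 _ (tail_mem (BB_xF hx List.mem_cons_self) hc)))
  have h2 : φ (b⁻¹ * x) 0 = 45892 := by rw [map_mul, Equiv.Perm.mul_apply, ← e]; simp
  have h3 := BB.mul_mem (inv_mem hb) hx
  have h4 : ev g xY * (b⁻¹ * x) ∈ gen g hs := by
    rw [hs_eq, mem_stabP, map_mul, Equiv.Perm.mul_apply, h2]; exact S.movesP_sound xY1
  have h5 := tail_sub (tail_mem (BB_xF (inv_mem h3) (p := 47492) (by decide)) fun h => by
    rw [map_inv, Equiv.Perm.inv_eq_iff_eq, h2] at h; omega)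
  refine not_sub (orbS_eq h5 ▸ ⟨_, h4, ?_⟩)
  rw [← Equiv.Perm.mul_apply, ← map_mul, mul_inv_cancel_right]
  exact S.movesP_sound xY2

theorem card_BB : Nat.card BB ≤ 8232 := by
  have h1 := card_stab_mul_orbit φ (gen g hs) 45892
  rw [orbS_eq (tail_sub (by decide)), (S.orbitB_sound so3).2, card_hs] at h1
  have h2 := card_le_of_le (inf_le_inf_right (stabP φ 45892) BB_le)
  have h3 : (orbS φ BB 45892).ncard ≤ 14 := by
    refine le_trans (Set.ncard_le_ncard (t := (xF.tail.toFinset : Set ℕ)) ?_) ?_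
    · rintro _ ⟨x, hx, rfl⟩
      refine List.mem_toFinset.2 (tail_mem (BB_xF hx (by decide)) fun h => ?_)
      have h4 : φ x 0 = 0 := hs_fix (BB_le hx)
      exact absurd ((φ x).injective (h.trans h4.symm)) (by norm_num)
    · rw [Set.ncard_coe_finset]; exact List.toFinset_card_le _
  rw [← card_stab_mul_orbit φ BB 45892]
  exact (Nat.mul_le_mul (h2.trans (by omega : _ ≤ 588)) h3).trans (by norm_num)

/-- The matrix of a word. -/
def mW (w : List ℕ) : M2 :=
  w.foldr (fun i m => M2.mul (if i = 0 then ⟨0, 2, 2, 0⟩ else ⟨0, 6, 1, 0⟩) m) ⟨1, 0, 0, 1⟩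

/-- The element of a word. -/
noncomputable def dW (w : List ℕ) : ON := w.foldr (fun i d => (if i = 0 then xf 6 else xf 7) * d) 1

theorem act_dW : ∀ w, Act cfg0.1.ι (mW w) (dW w)
  | [] => by
    have := Act.inner cfg0.1.ι 1
    rwa [map_one] at this
  | i :: w => by
    refine Act.mul ?_ (act_dW w)
    split_ifs
    exacts [act6, act7]

theorem act_dW' (u : Hs) (w : List ℕ) : Act cfg0.1.ι (mW w) (cfg0.1.ι u * dW w) := by
  have := (Act.inner _ u).mul (act_dW w)
  rwa [show M2.mul ⟨1, 0, 0, 1⟩ (mW w) = mW w by ext <;> simp [M2.mul]] at this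

theorem xW_inj : ∀ i j : Fin 24, mW (xW.getD i []) = mW (xW.getD j []) → i = j := by
  decide +kernel

theorem xW_mem : ∀ i : Fin 24, mW (xW.getD i []) ∈ ML ∧
    (mW (xW.getD i []) = ⟨1, 0, 0, 1⟩ → xW.getD i [] = []) := by decide +kernel

theorem loc : Loc cfg0.1.ι := fun b hb => by
  rw [cfg0.1.ι_z] at hb
  let f : Hs × Fin 24 → BB := fun x => ⟨_, act_mem (act_dW' x.1 (xW.getD x.2 []))⟩
  have h1 : Function.Injective f := by
    rintro ⟨u, i⟩ ⟨v, j⟩ e
    have e1 : cfg0.1.ι u * dW (xW.getD i []) = cfg0.1.ι v * dW (xW.getD j []) :=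
      congrArg Subtype.val e
    obtain rfl := xW_inj i j ((act_dW' u _).unique cfg0.1.ι_inj (e1 ▸ act_dW' v _))
    rw [cfg0.1.ι_inj (mul_right_cancel e1)]
  have h2 := (Nat.bijective_iff_injective_and_card f).2 ⟨h1, le_antisymm
    (Nat.card_le_card_of_injective f h1) (by rw [Nat.card_prod, Hs.card]; simpa using card_BB)⟩
  obtain ⟨⟨u, i⟩, e⟩ := h2.2 ⟨b, mem_BB hb⟩
  obtain rfl : cfg0.1.ι u * dW (xW.getD i []) = b := congrArg Subtype.val e
  exact ⟨_, (xW_mem i).1, act_dW' u _, fun h => ⟨u, by rw [(xW_mem i).2 h]; simp [dW]⟩⟩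

theorem fact7_card : (Nat.card ON).factorization 7 = 3 := by
  rw [card_eq]
  have h := fun k => (Nat.Prime.pow_dvd_iff_le_factorization (p := 7) (k := k) (n := 460815505920)
    (by norm_num) (by norm_num))
  have h1 := (h 3).1 (by norm_num)
  have h2 := (h 4).not.1 (by norm_num)
  omega

theorem range_conj (θ : gen g ns →* ON) (hθ : Function.Injective θ) :
    ∃ c : ON, MulAut.conj c • θ.range = PP cfg0.1.ι ⟨1, 0, 0⟩ ⟨0, 1, 0⟩ ∨
      MulAut.conj c • θ.range = PP cfg0.1.ι ⟨1, 1, 0⟩ ⟨1, -1, 0⟩ := by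
  have m0 := mem_ns_of_seven (xf_mem _) cfg0.1.1
  have m1 := mem_ns_of_seven (xf_mem _) cfg0.1.2.1
  have m2 := mem_ns_of_seven (xf_mem _) cfg0.1.2.2.1
  have m3 := mem_ns_of_seven (xf_mem _) cfg0.2.1
  have m4 := mem_ns_of_seven (xf_mem _) cfg0.2.2.1
  have m5 : xf 5 * xf 5 ∈ gen g ns :=
    mul_self_mem_of_index_two index_ns (⟨_, xf_mem 5⟩ : gen g hs)
  have C : Cfg (⟨_, m0⟩ : gen g ns) ⟨_, m1⟩ ⟨_, m2⟩ ⟨_, m3⟩ ⟨_, m4⟩ ⟨_, m5⟩ :=
    (Cfg.map_iff (gen g ns).subtype (subtype_injective _)).1 cfg0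
  have h1 : closure {(⟨_, m0⟩ : gen g ns), ⟨_, m1⟩, ⟨_, m3⟩, ⟨_, m4⟩} = ⊤ := by
    apply map_injective (subtype_injective _)
    rw [MonoidHom.map_closure, ← MonoidHom.range_eq_map, range_subtype]
    simp only [Set.image_insert_eq, Set.image_singleton]
    exact closure_eq_ns
  have h2 := loc.classify cfg0.1.ι_inj fact7_card ((Cfg.map_iff θ hθ).2 C)
  rw [MonoidHom.range_eq_map, ← h1, MonoidHom.map_closure]
  simp only [Set.image_insert_eq, Set.image_singleton]
  exact h2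

theorem cd_mem_ns : g 3 * g 4 ∈ gen g ns := by
  have h3 : ∀ w : List ℕ, powW w 3 ∈ R0 → (∀ x ∈ w, [2 * (x / 2)] ∈ hs) → ev g w ∈ gen g ns :=
    fun w h1 h2 => by
      have h4 := hr _ h1
      have h5 : ev g w ∈ gen g hs := ev_mem fun x hx => mem_gen_of_letter g (h2 x hx)
      have h6 : ev g w ^ 2 * ev g w ^ 2 ∈ gen g ns :=
        mul_self_mem_of_index_two index_ns (⟨_, pow_mem h5 2⟩ : gen g hs)
      rw [ev_powW] at h4
      rwa [← pow_add, show 2 + 2 = 3 + 1 from rfl, pow_succ, h4, one_mul] at h6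
  have e : ev g [6, 8] = g 3 * g 4 := by simp [ev_cons, ev_nil, evL]
  rw [← e, sameW_sound hi (w := [6, 4] ++ pushI im [2, 4] (tw ++ pushI im [10, 12]
    (pushI im [8, 10] []))) (by decide +kernel), ev_append, ev_pushI hi, ev_append, ev_pushI hi,
    ev_pushI hi, ev_nil, mul_one]
  exact mul_mem (ev_mem_gen g (by decide)) (mul_mem (inv_mem (h3 _ (by decide) (by decide)))
    (mul_mem tt_mem_ns (mul_mem (inv_mem (h3 _ (by decide) (by decide)))
      (inv_mem (ev_mem_gen g (by decide))))))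

/-- **Every subgroup `PSL(3, 7)` is the image of the standard one under an automorphism.** -/
theorem l37_conj (N : Subgroup ON)
    (e : N ≃* Matrix.ProjectiveSpecialLinearGroup (Fin 3) (ZMod 7)) :
    ∃ β : ON ≃* ON, N = (gen g ns).map β.toMonoidHom := by
  obtain ⟨e0⟩ := ns_equiv
  obtain ⟨ρ, hρ⟩ := OutAut.exists_aut
  obtain ⟨a, ha⟩ := range_conj (gen g ns).subtype (subtype_injective _)
  obtain ⟨b, hb⟩ := range_conj (ρ.toMonoidHom.comp (gen g ns).subtype)
    (ρ.injective.comp (subtype_injective _))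
  obtain ⟨c, hc⟩ := range_conj (N.subtype.comp (e0.trans e.symm).toMonoidHom)
    ((subtype_injective _).comp (e0.trans e.symm).injective)
  rw [range_subtype] at ha
  rw [MonoidHom.range_comp, range_subtype] at hb
  rw [MonoidHom.range_comp, MonoidHom.range_eq_top.2 (e0.trans e.symm).surjective,
    ← MonoidHom.range_eq_map, range_subtype] at hc
  have k0 : ∀ {X Y : Subgroup ON} {s t : ON}, MulAut.conj s • X = MulAut.conj t • Y →
      X = Y.map (MulAut.conj (s⁻¹ * t)).toMonoidHom := fun {X Y s t} h => by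
    show X = MulAut.conj (s⁻¹ * t) • Y
    rw [map_mul, map_inv, mul_smul, ← h, inv_smul_smul]
  have k1 : MulAut.conj b • (gen g ns).map ρ.toMonoidHom ≠ MulAut.conj a • gen g ns := fun h => by
    obtain ⟨y, hy, e'⟩ := (k0 h).le ⟨_, cd_mem_ns, rfl⟩
    have e2 : b⁻¹ * a * y * (b⁻¹ * a)⁻¹ = ρ (g 3 * g 4) := e'
    refine hρ (φ (b⁻¹ * a) 0) (S.gen_lt (ys := top) (top_eq ▸ mem_top _) (by norm_num)) ?_
    rw [← e2, ← Equiv.Perm.mul_apply, ← map_mul, inv_mul_cancel_right, map_mul,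
      Equiv.Perm.mul_apply, mem_stabP.1 (hs_fix (ns_le hi hy))]
  have k2 : MulAut.conj c • N = MulAut.conj a • gen g ns ∨
      MulAut.conj c • N = MulAut.conj b • (gen g ns).map ρ.toMonoidHom := by
    rcases ha with ha | ha <;> rcases hb with hb | hb <;> rcases hc with hc | hc <;>
      first
        | exact absurd (hb.trans ha.symm) k1
        | exact Or.inl (hc.trans ha.symm)
        | exact Or.inr (hc.trans hb.symm)
  rcases k2 with h | h
  · exact ⟨_, k0 h⟩
  · exact ⟨ρ.trans (MulAut.conj (c⁻¹ * b)), by rw [k0 h, map_map]; rfl⟩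

theorem normalizer_ns : normalizer (gen g ns : Set ON) = gen g hs := by
  have h1 : gen g hs ≤ normalizer (gen g ns : Set ON) := by
    have := normal_of_index_eq_two index_ns
    exact (normal_subgroupOf_iff_le_normalizer (ns_le hi)).1 this
  refine (maximal _ h1 (top_eq ▸ le_top)).resolve_right fun h => ?_
  rw [top_eq, normalizer_eq_top_iff] at h
  have := simple
  rcases h.eq_bot_or_eq_top with h2 | h2
  · exact ne_bot_of_card card_ns (by norm_num) h2
  · have := card_of_eq_top h2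
    rw [card_eq, card_ns] at this
    omega

/-- **Index and suborbits of the subgroups `PSL(3, 7).2`.** -/
theorem ext_orbits {G : Type*} [Group G] (ε : G ≃* ON) (H : Subgroup G) (N : Subgroup H)
    [N.Normal] (hN : N.index = 2)
    (e : N ≃* Matrix.ProjectiveSpecialLinearGroup (Fin 3) (ZMod 7)) :
    H.index = 122760 ∧ ∃ q₁ q₂ q₃ q₄ : G ⧸ H, (MulAction.orbit H q₁).ncard = 6384 ∧
      (MulAction.orbit H q₂).ncard = 5586 ∧ (MulAction.orbit H q₃).ncard = 58653 ∧
      (MulAction.orbit H q₄).ncard = 52136 := by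
  obtain ⟨β, hβ⟩ := l37_conj (N.map (ε.toMonoidHom.comp H.subtype))
    ((N.equivMapOfInjective _ (ε.injective.comp (subtype_injective H))).symm.trans e)
  let γ := ε.trans β.symm
  have h1 : N.map (γ.toMonoidHom.comp H.subtype) = gen g ns := by
    have : γ.toMonoidHom.comp H.subtype =
      β.symm.toMonoidHom.comp (ε.toMonoidHom.comp H.subtype) := rfl
    rw [this, ← map_map, hβ, map_map]
    simp
  have h2 : H.map γ.toMonoidHom ≤ gen g hs := by
    rw [← normalizer_ns, ← h1]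
    rintro _ ⟨x, hx, rfl⟩
    exact le_normalizer_map _ ⟨⟨x, hx⟩, by rw [normalizer_eq_top]; trivial, rfl⟩
  have h3 : H.map γ.toMonoidHom = gen g hs := by
    refine eq_of_le_of_card_ge h2 ?_
    rw [card_map_of_injective γ.injective, ← card_mul_index N, hN, Nat.card_congr e.toEquiv,
      card_psl, card_hs]
  have h4 : ∀ x, x ∈ H ↔ γ x ∈ gen g hs := fun x => by
    rw [← h3]; exact (mem_map_iff_mem (f := γ.toMonoidHom) γ.injective).symm
  have h5 : H = stabP (φ.comp γ.toMonoidHom) 0 := by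
    ext x; rw [h4, hs_eq]; rfl
  have key : ∀ q n, q < 122760 → (orbS φ (gen g hs) q).ncard = n →
      ∃ q' : G ⧸ H, (MulAction.orbit H q').ncard = n := fun q n hq hn => by
    obtain ⟨t, -, ht⟩ := orb_top.ge hq
    refine ⟨γ.symm t, ?_⟩
    rw [ncard_orbit_coset h5, ← hn, ← ht]
    congr 1
    ext r
    exact ⟨fun ⟨x, hx, e⟩ => ⟨γ x, (h4 x).1 hx, by simpa using e⟩,
      fun ⟨x, hx, e⟩ => ⟨γ.symm x, (h4 _).2 (by simpa using hx), by simpa using e⟩⟩
  obtain ⟨q₁, k₁⟩ := key _ _ (by norm_num) (S.orbitB_sound so3).2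
  obtain ⟨q₂, k₂⟩ := key _ _ (by norm_num) (S.orbitB_sound so2).2
  obtain ⟨q₃, k₃⟩ := key _ _ (by norm_num) (S.orbitB_sound so0).2
  obtain ⟨q₄, k₄⟩ := key _ _ (by norm_num) (S.orbitB_sound so1).2
  exact ⟨by rw [← index_hs, ← h3]; exact (index_map_equiv H γ).symm, q₁, q₂, q₃, q₄, k₁, k₂, k₃, k₄⟩

end CfsgLib.ON
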