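import Mathlib
import Cfsg.Agent.Lib.ON.Main
import Cfsg.Agent.Lib.ON.Small

/-!
# Simple subgroups of orders 175560 and 7920 of the O'Nan group
-/

namespace CfsgLib.ON

open CfsgLib.CosetEnum Cfsg.Spor

/-- Generators of a subgroup of order 175560. -/
noncomputable def gJ (i : ℕ) : ON := ev g (nth [] Jtop i)

/-- Generators of a subgroup of order 7920. -/
noncomputable def gM (i : ℕ) : ON := ev g (nth [] Mtop i)

theorem gJ_rel : ∀ r ∈ sqW [0] ++ JA_rels, ev gJ r = 1 :=
  S.rel_of_base hi base (List.forall_mem_cons.2 ⟨Jrel0,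
    List.forall_mem_cons.2 ⟨Jrel3, List.forall_mem_singleton.2 Jrel593⟩⟩)

theorem gM_rel : ∀ r ∈ sqW [0] ++ MA_rels, ev gM r = 1 :=
  S.rel_of_base hi base (List.forall_mem_cons.2 ⟨Mrel0,
    List.forall_mem_cons.2 ⟨Mrel3, List.forall_mem_singleton.2 Mrel593⟩⟩)

theorem J_bound {Γ : Type*} [Group Γ] {f : ℕ → Γ} (h1 : InvOk f (imOf [0]))
    (h2 : ∀ r ∈ JA_rels, ev f r = 1) : Bound f [[0], [2]] (266 * 660) :=
  Bound.of_idx (n := 9240) (m := 19) (bound_cyc (w := Jcyc) (by decide)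
    (conseq_sound h1 h2 (ws := [powW Jcyc 19]) (hs := Jhint) (by decide +kernel) _
      List.mem_cons_self)) (JA_idx h1 h2)

theorem M_bound {Γ : Type*} [Group Γ] {f : ℕ → Γ} (h1 : InvOk f (imOf [0]))
    (h2 : ∀ r ∈ MA_rels, ev f r = 1) : Bound f [[0], [2]] (11 * 720) :=
  Bound.of_idx (n := 720) (m := 11) (bound_cyc (w := Mcyc) (by decide)
    (conseq_sound h1 h2 (ws := [powW Mcyc 11]) (hs := Mhint) (by decide +kernel) _
      List.mem_cons_self)) (MA_idx h1 h2)

theorem ne_bot_of_move {f : ℕ → ON} {w : List ℕ} (h0 : f 0 = ev g w) {p : ℕ}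
    (h : fixesP nets w p = false) : gen f [[0], [2]] ≠ ⊥ := fun e => by
  have h1 : f 0 ∈ gen f [[0], [2]] := mem_gen_of_letter f List.mem_cons_self
  rw [e, Subgroup.mem_bot, h0] at h1
  exact S.fixesP_false h (by rw [h1]; simp)

theorem J_simple : IsSimpleGroup (gen gJ [[0], [2]]) ∧ Nat.card (gen gJ [[0], [2]]) = 175560 :=
  have h1 : InvOk gJ (imOf [0]) := invOk_of_sqW fun w hw => gJ_rel w (List.mem_append_left _ hw)
  JB_model.simple_of_small h1 (J_bound (h1.prod JB_model.inv)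
    (JB_model.prod_rel fun w hw => gJ_rel w (List.mem_append_right _ hw))) Jchain_ok (by decide)
    (by decide) (fun f => gen_le_two f (by decide +kernel)) JchainH_ok (by decide) Jfix_ok
    (by decide) Jorb_full Jsubs_ok Jncl_ok (by decide) (ne_bot_of_move rfl Jne)

theorem M_simple : IsSimpleGroup (gen gM [[0], [2]]) ∧ Nat.card (gen gM [[0], [2]]) = 7920 :=
  have h1 : InvOk gM (imOf [0]) := invOk_of_sqW fun w hw => gM_rel w (List.mem_append_left _ hw)
  MB_model.simple_of_small h1 (M_bound (h1.prod MB_model.inv)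
    (MB_model.prod_rel fun w hw => gM_rel w (List.mem_append_right _ hw))) Mchain_ok (by decide)
    (by decide) (fun f => gen_le_two f (by decide +kernel)) MchainH_ok (by decide) Mfix_ok
    (by decide) Morb_full Msubs_ok Mncl_ok (by decide) (ne_bot_of_move rfl Mne)

end CfsgLib.ON
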